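import Mathlib.GroupTheory.Sylow
import Mathlib.GroupTheory.Complement
import Mathlib.GroupTheory.SpecificGroups.Cyclic

/-!
Elementary facts on Frobenius complements: `H` acts on the normal subgroup `K` so that every nonidentity element of `H`
has trivial centraliser in `K`.
-/

set_option autoImplicit false

namespace Cfsg.Agent.Lib.Helper52

open Subgroup

variable {G : Type*} [Group G]

/-- An involution acting without nontrivial fixed points on a finite normalised subgroup `K` inverts it. -/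
theorem inverts_of_fpf_involution [Finite G] (K : Subgroup G) {t : G}
    (htK : ∀ k ∈ K, t * k * t⁻¹ ∈ K) (ht : t ^ 2 = 1)
    (hfpf : K ⊓ centralizer {t} = ⊥) : ∀ k ∈ K, t * k * t⁻¹ = k⁻¹ := by
  have htt : t * t = 1 := by rw [← sq]; exact ht
  have hti : t⁻¹ = t := inv_eq_of_mul_eq_one_left htt
  let φ : K → K := fun k => ⟨(k : G)⁻¹ * (t * k * t⁻¹), mul_mem (inv_mem k.2) (htK k k.2)⟩
  have hinj : Function.Injective φ := by
    intro k l hkl
    have h1 : (k : G)⁻¹ * (t * k * t⁻¹) = (l : G)⁻¹ * (t * l * t⁻¹) := congrArg Subtype.val hkl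
    have h2 : (l : G) * (k : G)⁻¹ ∈ K ⊓ centralizer {t} := by
      refine mem_inf.2 ⟨mul_mem l.2 (inv_mem k.2), ?_⟩
      rw [mem_centralizer_singleton_iff]
      have h3 : (l : G) * (k : G)⁻¹ = t * ((l : G) * (k : G)⁻¹) * t⁻¹ := by
        calc (l : G) * (k : G)⁻¹ = l * ((k : G)⁻¹ * (t * k * t⁻¹)) * (t * k * t⁻¹)⁻¹ := by group
          _ = l * ((l : G)⁻¹ * (t * l * t⁻¹)) * (t * k * t⁻¹)⁻¹ := by rw [h1]
          _ = t * ((l : G) * (k : G)⁻¹) * t⁻¹ := by group
      calc (l : G) * (k : G)⁻¹ * t = t * ((l : G) * (k : G)⁻¹) * t⁻¹ * t := by rw [← h3]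
        _ = t * ((l : G) * (k : G)⁻¹) := by group
    rw [hfpf, mem_bot, mul_inv_eq_one] at h2
    exact (Subtype.ext h2).symm
  have hsurj : Function.Surjective φ := Finite.surjective_of_injective hinj
  intro x hx
  obtain ⟨k, hk⟩ := hsurj ⟨x, hx⟩
  have hk' : (k : G)⁻¹ * (t * k * t⁻¹) = x := congrArg Subtype.val hk
  rw [← hk', hti]
  calc t * ((k : G)⁻¹ * (t * k * t)) * t = (t * (k : G)⁻¹ * t) * k * (t * t) := by group
    _ = (t * (k : G)⁻¹ * t) * k := by rw [htt, mul_one]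
    _ = ((k : G)⁻¹ * (t * k * t))⁻¹ := by
      rw [mul_inv_rev, mul_inv_rev, mul_inv_rev, inv_inv, hti]
      group

/-- A subgroup inverted by some element is commutative. -/
theorem comm_of_inverted (K : Subgroup G) {t : G} (h : ∀ k ∈ K, t * k * t⁻¹ = k⁻¹) :
    ∀ k ∈ K, ∀ l ∈ K, k * l = l * k := by
  intro k hk l hl
  have h1 := h (k * l) (mul_mem hk hl)
  have h2 : t * (k * l) * t⁻¹ = (t * k * t⁻¹) * (t * l * t⁻¹) := by group
  rw [h2, h k hk, h l hl, mul_inv_rev] at h1
  have h3 := congrArg (fun x => x⁻¹) h1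
  simp only [mul_inv_rev, inv_inv] at h3
  exact h3.symm

end Cfsg.Agent.Lib.Helper52
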