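import Mathlib
import Cfsg.Agent.Lib.Lead.Cores
import Cfsg.Agent.Lib.Helper74.KleinFour

/-!
# Groups with a quaternion Sylow `2`-subgroup of order `8`: elementary group theory
-/

set_option autoImplicit false
set_option linter.style.haveILetI false
set_option linter.unusedSectionVars false

namespace Cfsg.Agent.Lib.Helper52.Q8

open Cfsg Cfsg.Agent.Lib.Lead

theorem quat_pow_four : ∀ x : QuaternionGroup 2, x ^ 4 = 1 := by decide

theorem quat_invol : ∀ x : QuaternionGroup 2, x ^ 2 = 1 → x = 1 ∨ x = QuaternionGroup.a 2 := by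
  decide

theorem quat_cent : ∀ x q : QuaternionGroup 2, x ^ 2 ≠ 1 → q * x = x * q →
    q = 1 ∨ q = x ∨ q = x ^ 2 ∨ q = x ^ 3 := by decide

variable {G : Type*} [Group G] [Finite G] (S : Sylow 2 G)
  (e : (S : Subgroup G) ≃* QuaternionGroup 2)

include e in
theorem pow_four {s : G} (hs : s ∈ (S : Subgroup G)) : s ^ 4 = 1 := by
  have h := quat_pow_four (e ⟨s, hs⟩)
  rw [← map_pow, EmbeddingLike.map_eq_one_iff] at h
  exact congrArg Subtype.val h

include e in
theorem invol_unique {s u : G} (hs : s ∈ (S : Subgroup G)) (hu : u ∈ (S : Subgroup G))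
    (hs2 : s ^ 2 = 1) (hs1 : s ≠ 1) (hu2 : u ^ 2 = 1) (hu1 : u ≠ 1) : s = u := by
  have key : ∀ v : G, ∀ hv : v ∈ (S : Subgroup G), v ^ 2 = 1 → v ≠ 1 →
      e ⟨v, hv⟩ = QuaternionGroup.a 2 := by
    intro v hv hv2 hv1
    have h1 : (e ⟨v, hv⟩) ^ 2 = 1 := by
      rw [← map_pow, EmbeddingLike.map_eq_one_iff]
      exact Subtype.ext hv2
    rcases quat_invol _ h1 with h | h
    · rw [EmbeddingLike.map_eq_one_iff] at h
      exact absurd (congrArg Subtype.val h) hv1
    · exact h
  have := e.injective ((key s hs hs2 hs1).trans (key u hu hu2 hu1).symm)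
  exact congrArg Subtype.val this

include e in
theorem mem_zpowers_of_commute {x q : G} (hx : x ∈ (S : Subgroup G)) (hq : q ∈ (S : Subgroup G))
    (hx2 : x ^ 2 ≠ 1) (hc : q * x = x * q) : q ∈ Subgroup.zpowers x := by
  have h1 : (e ⟨x, hx⟩) ^ 2 ≠ 1 := by
    rw [← map_pow, Ne, EmbeddingLike.map_eq_one_iff]
    intro h
    exact hx2 (congrArg Subtype.val h)
  have h2 : e ⟨q, hq⟩ * e ⟨x, hx⟩ = e ⟨x, hx⟩ * e ⟨q, hq⟩ := by
    rw [← map_mul, ← map_mul]
    congr 1
    exact Subtype.ext hc
  rcases quat_cent _ _ h1 h2 with h | h | h | h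
  · rw [EmbeddingLike.map_eq_one_iff] at h
    have : q = 1 := congrArg Subtype.val h
    rw [this]; exact Subgroup.one_mem _
  · have : q = x := congrArg Subtype.val (e.injective h)
    rw [this]; exact Subgroup.mem_zpowers x
  · rw [← map_pow] at h
    have : q = x ^ 2 := congrArg Subtype.val (e.injective h)
    rw [this]; exact Subgroup.npow_mem_zpowers x 2
  · rw [← map_pow] at h
    have : q = x ^ 3 := congrArg Subtype.val (e.injective h)
    rw [this]; exact Subgroup.npow_mem_zpowers x 3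

include e in
theorem card_sylow : Nat.card (S : Subgroup G) = 8 := by
  rw [Nat.card_congr e.toEquiv, Nat.card_eq_fintype_card, QuaternionGroup.card]

theorem exists_conj_le (T : Subgroup G) (hT : IsPGroup 2 T) :
    ∃ g : G, ∀ q ∈ T, g * q * g⁻¹ ∈ (S : Subgroup G) := by
  haveI : Fact (Nat.Prime 2) := ⟨Nat.prime_two⟩
  obtain ⟨Q, hQ⟩ := hT.exists_le_sylow
  obtain ⟨g, hg⟩ := MulAction.exists_smul_eq G Q S
  refine ⟨g, fun q hq => ?_⟩
  rw [← hg]
  exact ⟨q, hQ hq, rfl⟩

include e in
/-- the centralizer of an element of order `4` has a normal `2`-complement and Sylow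
`2`-subgroups of order `4`. -/
theorem centralizer_order_four (x : G) (hx : orderOf x = 4) :
    (∃ k : ℕ, (pPrimeCore 2 (Subgroup.centralizer ({x} : Set G))).index = 2 ^ k) ∧
      (Nat.card (Subgroup.centralizer ({x} : Set G))).factorization 2 = 2 := by
  haveI : Fact (Nat.Prime 2) := ⟨Nat.prime_two⟩
  obtain ⟨C, hC⟩ : ∃ C : Subgroup G, C = Subgroup.centralizer ({x} : Set G) := ⟨_, rfl⟩
  rw [← hC]
  have hxC : x ∈ C := by rw [hC]; exact Subgroup.mem_centralizer_singleton_iff.2 rfl
  have hcomm : ∀ q ∈ C, q * x = x * q := by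
    intro q hq
    rw [hC] at hq
    exact Subgroup.mem_centralizer_singleton_iff.1 hq
  have hx2 : x ^ 2 ≠ 1 := by
    intro h
    have := orderOf_dvd_of_pow_eq_one h
    rw [hx] at this
    omega
  obtain ⟨T⟩ : Nonempty (Sylow 2 C) := inferInstance
  -- `x` lies in `T`
  have hxT : (⟨x, hxC⟩ : C) ∈ (T : Subgroup C) := by
    have hn : (Subgroup.zpowers (⟨x, hxC⟩ : C)).Normal := by
      have hcen : Subgroup.zpowers (⟨x, hxC⟩ : C) ≤ Subgroup.center C := by
        rw [Subgroup.zpowers_le, Subgroup.mem_center_iff]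
        intro q
        exact Subtype.ext (hcomm q q.2)
      refine ⟨fun y hy g => ?_⟩
      have := Subgroup.mem_center_iff.1 (hcen hy) g
      rw [this, mul_inv_cancel_right]
      exact hy
    have hp : IsPGroup 2 (Subgroup.zpowers (⟨x, hxC⟩ : C)) := by
      apply IsPGroup.of_card (n := 2)
      rw [Nat.card_zpowers, Subgroup.orderOf_mk, hx]
      norm_num
    exact pCore_le_sylow T (le_pCore hn hp (Subgroup.mem_zpowers _))
  have hT' : IsPGroup 2 ((T : Subgroup C).map C.subtype) := T.2.map _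
  obtain ⟨g, hg⟩ := exists_conj_le S _ hT'
  have hle : ∀ q : C, q ∈ (T : Subgroup C) → q ∈ Subgroup.zpowers (⟨x, hxC⟩ : C) := by
    intro q hq
    have h1 : g * (q : G) * g⁻¹ ∈ (S : Subgroup G) := hg _ ⟨q, hq, rfl⟩
    have h2 : g * x * g⁻¹ ∈ (S : Subgroup G) := hg _ ⟨⟨x, hxC⟩, hxT, rfl⟩
    have h3 : (g * x * g⁻¹) ^ 2 ≠ 1 := by
      rw [conj_pow]
      intro h
      apply hx2
      have := congrArg (fun y => g⁻¹ * y * g) h
      simpa [mul_assoc] using this
    have h4 : g * (q : G) * g⁻¹ * (g * x * g⁻¹) = g * x * g⁻¹ * (g * (q : G) * g⁻¹) := by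
      have := hcomm q q.2
      calc g * (q : G) * g⁻¹ * (g * x * g⁻¹) = g * ((q : G) * x) * g⁻¹ := by group
        _ = g * (x * (q : G)) * g⁻¹ := by rw [this]
        _ = _ := by group
    obtain ⟨k, hk⟩ := Subgroup.mem_zpowers_iff.1 (mem_zpowers_of_commute S e h2 h1 h3 h4)
    rw [conj_zpow] at hk
    have h5 : x ^ k = (q : G) := by
      have := congrArg (fun y => g⁻¹ * y * g) hk
      simpa [mul_assoc] using this
    rw [Subgroup.mem_zpowers_iff]
    exact ⟨k, Subtype.ext (by simpa using h5)⟩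
  have hTeq : (T : Subgroup C) = Subgroup.zpowers (⟨x, hxC⟩ : C) :=
    le_antisymm hle (by rw [Subgroup.zpowers_le]; exact hxT)
  have hTcard : Nat.card (T : Subgroup C) = 4 := by
    rw [hTeq, Nat.card_zpowers, Subgroup.orderOf_mk, hx]
  have hcyc : IsCyclic (T : Subgroup C) := by
    rw [hTeq]; infer_instance
  have h2C : 2 ∣ Nat.card C := by
    have h1 : Nat.card (T : Subgroup C) ∣ Nat.card C := Subgroup.card_subgroup_dvd_card _
    rw [hTcard] at h1
    exact Dvd.dvd.trans (by norm_num) h1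
  have hcompl := IsCyclic.isComplement' ((Nat.minFac_eq_two_iff _).mpr h2C) hcyc
  obtain ⟨K, hK⟩ : ∃ K : Subgroup C, K = (MonoidHom.transferSylow T
    (hcyc.normalizer_le_centralizer ((Nat.minFac_eq_two_iff _).mpr h2C))).ker := ⟨_, rfl⟩
  rw [← hK] at hcompl
  have hKn : K.Normal := by rw [hK]; infer_instance
  have hidx : K.index = 4 := by
    rw [← hTcard]
    exact hcompl.symm.index_eq_card
  have hKcop : (Nat.card K).Coprime 2 := by
    have h1 := T.card_coprime_index
    rw [hcompl.index_eq_card, hTcard] at h1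
    have : Nat.Coprime 2 (Nat.card K) := Nat.Coprime.coprime_dvd_left (by norm_num) h1
    exact this.symm
  constructor
  · have h1 : (pPrimeCore 2 C).index ∣ K.index := Subgroup.index_dvd_of_le (le_pPrimeCore hKn hKcop)
    rw [hidx] at h1
    have h2 : (pPrimeCore 2 C).index ∣ 2 ^ 2 := by norm_num; exact h1
    obtain ⟨k, -, hk⟩ := (Nat.dvd_prime_pow Nat.prime_two).1 h2
    exact ⟨k, hk⟩
  · have h1 := T.card_eq_multiplicity
    rw [hTcard] at h1
    have h2 : (2 : ℕ) ^ 2 = 2 ^ (Nat.card C).factorization 2 := by rw [← h1]; norm_num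
    exact (Nat.pow_right_injective (le_refl 2) h2).symm

include e in
/-- the quotient by a centre of order two has order `4 g₀` and no normal `2`-complement -/
theorem quotient_no_complement (hO : ∀ N : Subgroup G, N.Normal → Odd (Nat.card N) → N = ⊥)
    (hG : (S : Subgroup G) ≠ ⊤) (hcen : Nat.card (Subgroup.center G) = 2) :
    ∃ g₀ : ℕ, Odd g₀ ∧ Nat.card G = 8 * g₀ ∧ Nat.card (G ⧸ Subgroup.center G) = 4 * g₀ ∧
      ¬ ∃ N : Subgroup (G ⧸ Subgroup.center G), N.Normal ∧ Nat.card N = g₀ := by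
  haveI : Fact (Nat.Prime 2) := ⟨Nat.prime_two⟩
  have hS := card_sylow S e
  have hcG : Nat.card G = 8 * (S : Subgroup G).index := by
    rw [← hS]; exact (Subgroup.card_mul_index _).symm
  have hodd : Odd (S : Subgroup G).index := by
    have h1 := S.card_coprime_index
    rw [hS] at h1
    have : Nat.Coprime 2 (S : Subgroup G).index := Nat.Coprime.coprime_dvd_left (by norm_num) h1
    exact Nat.Coprime.odd_of_left this
  have hq : Nat.card (G ⧸ Subgroup.center G) = 4 * (S : Subgroup G).index := by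
    have := Subgroup.card_eq_card_quotient_mul_card_subgroup (Subgroup.center G)
    rw [hcen, hcG] at this
    omega
  refine ⟨_, hodd, hcG, hq, ?_⟩
  rintro ⟨Nb, hNb, hNbc⟩
  obtain ⟨N, hN⟩ : ∃ N : Subgroup G, N = Nb.comap (QuotientGroup.mk' (Subgroup.center G)) :=
    ⟨_, rfl⟩
  haveI hNn : N.Normal := by rw [hN]; infer_instance
  have hNc : Nat.card N = 2 * (S : Subgroup G).index := by
    rw [hN, card_comap_mk', hcen, hNbc]
  obtain ⟨T⟩ : Nonempty (Sylow 2 N) := inferInstance
  have hidx0 : (S : Subgroup G).index ≠ 0 := Subgroup.FiniteIndex.index_ne_zero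
  have hTc : Nat.card (T : Subgroup N) = 2 := by
    rw [T.card_eq_multiplicity, hNc, Nat.factorization_mul (by norm_num) hidx0]
    have h1 : (S : Subgroup G).index.factorization 2 = 0 :=
      Nat.factorization_eq_zero_of_not_dvd
        (by rw [← even_iff_two_dvd, Nat.not_even_iff_odd]; exact hodd)
    simp [h1, Nat.Prime.factorization_self Nat.prime_two]
  have hcyc : IsCyclic (T : Subgroup N) := isCyclic_of_prime_card hTc
  have h2N : 2 ∣ Nat.card N := by rw [hNc]; exact Dvd.intro _ rfl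
  have hcompl := IsCyclic.isComplement' ((Nat.minFac_eq_two_iff _).mpr h2N) hcyc
  obtain ⟨K, hK⟩ : ∃ K : Subgroup N, K = (MonoidHom.transferSylow T
    (hcyc.normalizer_le_centralizer ((Nat.minFac_eq_two_iff _).mpr h2N))).ker := ⟨_, rfl⟩
  rw [← hK] at hcompl
  have hKn : K.Normal := by rw [hK]; infer_instance
  have hKc : Nat.card K = (S : Subgroup G).index := by
    have := hcompl.card_mul_card
    rw [hTc, hNc] at this
    omega
  have hKcop : (Nat.card K).Coprime 2 := by
    rw [hKc]; exact Nat.Coprime.symm (Nat.coprime_two_left.2 hodd)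
  have h1 : K.map N.subtype ≤ pPrimeCore 2 G :=
    (Subgroup.map_mono (le_pPrimeCore hKn hKcop)).trans (pPrimeCore_normal_subgroup_le N)
  have h2 : pPrimeCore 2 G = ⊥ := by
    apply hO _ inferInstance
    exact Nat.Coprime.odd_of_left (Nat.Coprime.symm (card_pPrimeCore_coprime (G := G) 2))
  rw [h2, le_bot_iff] at h1
  have h3 : Nat.card K = 1 := by
    have : Nat.card (K.map N.subtype) = Nat.card K :=
      Subgroup.card_map_of_injective N.subtype_injective
    rw [← this, h1]
    exact Subgroup.card_bot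
  apply hG
  apply Subgroup.eq_top_of_card_eq
  rw [hS, hcG, ← hKc, h3]

end Cfsg.Agent.Lib.Helper52.Q8
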