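import Mathlib
import Cfsg.Agent.Lib.Helper52.Q8Group
import Cfsg.Agent.Lib.Helper4.PPart
import Cfsg.Agent.Lib.Helper15.Extraspecial
import Cfsg.Agent.Lib.Helper82.QuotBlock
import Cfsg.Agent.S0947
import Cfsg.Agent.S0948
import Cfsg.Agent.S0925

/-!
# The principal `2`-block of a group with quaternion Sylow `2`-subgroup of order `8` and a
central involution
-/

set_option autoImplicit false
set_option linter.style.haveILetI false
set_option linter.unusedSectionVars false

namespace Cfsg.Agent.Lib.Helper52.Q8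

open Cfsg Cfsg.Agent.Lib.Lead Cfsg.Agent.Lib.Helper74 Cfsg.Agent.Lib.Helper78
open scoped ComplexConjugate

variable {G : Type*} [Group G] [Finite G] (S : Sylow 2 G)
  (e : (S : Subgroup G) ≃* QuaternionGroup 2)
  (M : Ideal Cfsg.AlgInt) (hM : Cfsg.IsPModular 2 M)
  (t : G) (ht : t ∈ Subgroup.center G) (ht2 : orderOf t = 2)

include ht ht2 in
theorem t_mem_sylow : t ∈ (S : Subgroup G) := by
  haveI : Fact (Nat.Prime 2) := ⟨Nat.prime_two⟩
  have hcen : Subgroup.zpowers t ≤ Subgroup.center G := by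
    rw [Subgroup.zpowers_le]; exact ht
  have hn : (Subgroup.zpowers t).Normal := by
    refine ⟨fun y hy g => ?_⟩
    have := Subgroup.mem_center_iff.1 (hcen hy) g
    rw [this, mul_inv_cancel_right]
    exact hy
  have hp : IsPGroup 2 (Subgroup.zpowers t) := by
    apply IsPGroup.of_card (n := 1)
    rw [Nat.card_zpowers, ht2]
    norm_num
  exact pCore_le_sylow S (le_pCore hn hp (Subgroup.mem_zpowers _))

include e hM ht ht2 in
theorem sum_normSq_of_even (w : G) (hw : Even (orderOf (w : G ⧸ Subgroup.center G))) :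
    ∑ᶠ χ ∈ principalBlock M G, ‖(χ : G → ℂ) w‖ ^ 2 = 4 := by
  haveI : Fact (Nat.Prime 2) := ⟨Nat.prime_two⟩
  obtain ⟨c, a, hc, -⟩ := Cfsg.Agent.Lib.Helper4.exists_pPartExp G 2
  obtain ⟨y, hxy, hcomm, ⟨k, hk⟩, hy⟩ := (hc w (w ^ c)).2 rfl
  obtain ⟨x, hx⟩ : ∃ x : G, x = w ^ c := ⟨_, rfl⟩
  rw [← hx] at hxy hcomm hk
  obtain ⟨g, hg⟩ := exists_conj_mem_sylow S x k hk
  have hx4 : x ^ 4 = 1 := by
    have h := pow_four S e hg
    rw [conj_pow] at h
    have := congrArg (fun y => g⁻¹ * y * g) h
    simpa [mul_assoc] using this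
  have ht1 : t ≠ 1 := by
    intro h; rw [h, orderOf_one] at ht2; omega
  have htt : t ^ 2 = 1 := by rw [← ht2]; exact pow_orderOf_eq_one t
  have hx2 : x ^ 2 ≠ 1 := by
    intro h2
    have hxc : x ∈ Subgroup.center G := by
      by_cases hx1 : x = 1
      · rw [hx1]; exact Subgroup.one_mem _
      · have h3 : (g * x * g⁻¹) ^ 2 = 1 := by rw [conj_pow, h2]; group
        have h4 : g * x * g⁻¹ ≠ 1 := by
          intro h
          apply hx1
          have := congrArg (fun y => g⁻¹ * y * g) h
          simpa [mul_assoc] using this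
        have h5 := invol_unique S e hg (t_mem_sylow S t ht ht2) h3 h4 htt ht1
        have h6 : x = g⁻¹ * t * g := by rw [← h5]; group
        have h7 : g⁻¹ * t = t * g⁻¹ := Subgroup.mem_center_iff.1 ht g⁻¹
        rw [h6, h7, mul_assoc, inv_mul_cancel, mul_one]
        exact ht
    have h8 : (w : G ⧸ Subgroup.center G) = (y : G ⧸ Subgroup.center G) := by
      rw [← hxy, QuotientGroup.mk_mul, (QuotientGroup.eq_one_iff x).2 hxc, one_mul]
    rw [h8] at hw
    have h9 : orderOf (y : G ⧸ Subgroup.center G) ∣ orderOf y :=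
      orderOf_map_dvd (QuotientGroup.mk' (Subgroup.center G)) y
    exact hy ((even_iff_two_dvd.1 hw).trans h9)
  have hxo : orderOf x = 4 := by
    have := orderOf_eq_prime_pow (p := 2) (n := 1) (x := x) (by simpa using hx2) (by simpa using hx4)
    simpa using this
  obtain ⟨h1, h2⟩ := centralizer_order_four S e x hxo
  have hx1 : x ≠ 1 := by
    intro h; rw [h, orderOf_one] at hxo; omega
  have hyC : y ∈ Subgroup.centralizer ({x} : Set G) :=
    Subgroup.mem_centralizer_singleton_iff.2 hcomm.symm.eq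
  have h3 := (Cfsg.Agent.S0947.result 2 M hM x ⟨2, by rw [hxo]; norm_num⟩ hx1 ⟨y, hyC⟩
    (by rw [Subgroup.orderOf_mk]; exact hy)).2 h1
  rw [h2] at h3
  simp only [hxy] at h3
  rw [h3]
  norm_num

/-- the sign by which the central involution acts -/
noncomputable def sgn (χ : IrrCharacter G) : ℂ := (χ : G → ℂ) t / (χ : G → ℂ) 1

include ht ht2 in
theorem sgn_cases (χ : IrrCharacter G) : sgn t χ = 1 ∨ sgn t χ = -1 := by
  have h := Cfsg.Agent.Lib.Helper15.irr_mul_central χ.2 t ht
  have htt : t * t = 1 := by rw [← pow_two, ← ht2]; exact pow_orderOf_eq_one t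
  rw [htt] at h
  have h0 := irr_one_ne_zero χ
  have h1 : sgn t χ * sgn t χ = 1 := by
    unfold sgn
    field_simp
    rw [pow_two, pow_two, ← h]
  have h2 : (sgn t χ - 1) * (sgn t χ + 1) = 0 := by linear_combination h1
  rcases mul_eq_zero.1 h2 with h3 | h3
  · left; linear_combination h3
  · right; linear_combination h3

include ht in
theorem apply_t_mul (χ : IrrCharacter G) (g : G) :
    (χ : G → ℂ) (t * g) = sgn t χ * (χ : G → ℂ) g := by
  have h := Cfsg.Agent.Lib.Helper15.irr_mul_central χ.2 g ht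
  have h0 := irr_one_ne_zero χ
  rw [← Subgroup.mem_center_iff.1 ht g]
  unfold sgn
  field_simp
  rw [h]; ring

include ht ht2 in
theorem conj_sgn (χ : IrrCharacter G) : conj (sgn t χ) = sgn t χ := by
  rcases sgn_cases t ht ht2 χ with h | h <;> rw [h] <;> simp

include ht ht2 in
/-- trichotomy of the elements of `G` -/
theorem trichotomy (hcen : Nat.card (Subgroup.center G) = 2) (g : G) :
    (Even (orderOf (g : G ⧸ Subgroup.center G)) ∧ ¬ Odd (orderOf g) ∧ ¬ Odd (orderOf (t * g))) ∨
    (¬ Even (orderOf (g : G ⧸ Subgroup.center G)) ∧ Odd (orderOf g) ∧ ¬ Odd (orderOf (t * g))) ∨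
    (¬ Even (orderOf (g : G ⧸ Subgroup.center G)) ∧ ¬ Odd (orderOf g) ∧ Odd (orderOf (t * g))) := by
  have htt : t ^ 2 = 1 := by rw [← ht2]; exact pow_orderOf_eq_one t
  have ht1 : t ≠ 1 := by
    intro h; rw [h, orderOf_one] at ht2; omega
  have hcomm : Commute t g := (Subgroup.mem_center_iff.1 ht g).symm
  have hmk : ((t * g : G) : G ⧸ Subgroup.center G) = (g : G ⧸ Subgroup.center G) := by
    rw [QuotientGroup.mk_mul, (QuotientGroup.eq_one_iff t).2 ht, one_mul]
  have h1 : Odd (orderOf g) → ¬ Even (orderOf (g : G ⧸ Subgroup.center G)) := by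
    intro h
    rw [Nat.not_even_iff_odd]
    exact Odd.of_dvd_nat h (orderOf_map_dvd (QuotientGroup.mk' (Subgroup.center G)) g)
  have h2 : Odd (orderOf (t * g)) → ¬ Even (orderOf (g : G ⧸ Subgroup.center G)) := by
    intro h
    rw [Nat.not_even_iff_odd, ← hmk]
    exact Odd.of_dvd_nat h (orderOf_map_dvd (QuotientGroup.mk' (Subgroup.center G)) (t * g))
  have h3 : Odd (orderOf g) → ¬ Odd (orderOf (t * g)) := by
    intro ha hb
    have h4 : t ^ (orderOf g * orderOf (t * g)) = 1 := by
      have h5 : (t * g) ^ (orderOf g * orderOf (t * g)) = 1 := by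
        rw [mul_comm, pow_mul, pow_orderOf_eq_one, one_pow]
      rw [hcomm.mul_pow, pow_mul g, pow_orderOf_eq_one, one_pow, mul_one] at h5
      exact h5
    have h6 := orderOf_dvd_of_pow_eq_one h4
    rw [ht2] at h6
    have h7 : Odd (orderOf g * orderOf (t * g)) := ha.mul hb
    rw [← Nat.not_even_iff_odd, even_iff_two_dvd] at h7
    exact h7 h6
  have h4 : ¬ Even (orderOf (g : G ⧸ Subgroup.center G)) →
      Odd (orderOf g) ∨ Odd (orderOf (t * g)) := by
    intro h
    rw [Nat.not_even_iff_odd] at h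
    have h5 : g ^ orderOf (g : G ⧸ Subgroup.center G) ∈ Subgroup.center G := by
      rw [← QuotientGroup.eq_one_iff, QuotientGroup.mk_pow, pow_orderOf_eq_one]
    have hz : Subgroup.zpowers t = Subgroup.center G := by
      apply Subgroup.eq_of_le_of_card_ge
      · rw [Subgroup.zpowers_le]; exact ht
      · rw [hcen, Nat.card_zpowers, ht2]
    have h5' : g ^ orderOf (g : G ⧸ Subgroup.center G) ∈ Subgroup.zpowers t := hz.ge h5
    obtain ⟨k, hk⟩ := (mem_powers_iff_mem_zpowers).2 h5'
    have hk' : t ^ k = g ^ orderOf (g : G ⧸ Subgroup.center G) := hk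
    rcases Nat.even_or_odd' k with ⟨j, rfl | rfl⟩
    · left
      rw [pow_mul, htt, one_pow] at hk'
      exact Odd.of_dvd_nat h (orderOf_dvd_of_pow_eq_one hk'.symm)
    · right
      rw [pow_succ, pow_mul, htt, one_pow, one_mul] at hk'
      apply Odd.of_dvd_nat h
      apply orderOf_dvd_of_pow_eq_one
      rw [hcomm.mul_pow, ← hk']
      obtain ⟨i, hi⟩ := h
      rw [hi, pow_succ, pow_mul, htt, one_pow, one_mul, ← pow_two, htt]
  by_cases hE : Even (orderOf (g : G ⧸ Subgroup.center G))
  · left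
    exact ⟨hE, fun h => h1 h hE, fun h => h2 h hE⟩
  · rcases h4 hE with h | h
    · right; left; exact ⟨hE, h, h3 h⟩
    · right; right; exact ⟨hE, fun h' => h3 h' h, h⟩

open Classical in
include ht ht2 in
/-- splitting a sum of a `t`-invariant function -/
theorem sum_split [Fintype G] (hcen : Nat.card (Subgroup.center G) = 2) (φ : G → ℂ)
    (hφ : ∀ g, φ (t * g) = φ g) :
    ∑ g : G, φ g = (∑ g : G, if Even (orderOf (g : G ⧸ Subgroup.center G)) then φ g else 0)
      + 2 * ∑ g : G, if Odd (orderOf g) then φ g else 0 := by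
  have h1 : ∑ g : G, (if Odd (orderOf (t * g)) then φ g else 0)
      = ∑ g : G, if Odd (orderOf g) then φ g else 0 := by
    rw [← Equiv.sum_comp (Equiv.mulLeft t) (fun g => if Odd (orderOf g) then φ g else 0)]
    refine Finset.sum_congr rfl fun g _ => ?_
    simp only [Equiv.coe_mulLeft, hφ]
  rw [two_mul, ← add_assoc]
  nth_rewrite 2 [← h1]
  rw [← Finset.sum_add_distrib, ← Finset.sum_add_distrib]
  refine Finset.sum_congr rfl fun g _ => ?_
  rcases trichotomy t ht ht2 hcen g with ⟨a, b, c⟩ | ⟨a, b, c⟩ | ⟨a, b, c⟩ <;>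
    simp [a, b, c]

/-- inflation of irreducible characters from the central quotient -/
noncomputable def infl (χ : IrrCharacter (G ⧸ Subgroup.center G)) : IrrCharacter G :=
  ⟨(χ : G ⧸ Subgroup.center G → ℂ) ∘ (QuotientGroup.mk' (Subgroup.center G)),
    IsIrrCharacter.comp_surjective χ.2 _ (QuotientGroup.mk'_surjective _)⟩

theorem infl_apply (χ : IrrCharacter (G ⧸ Subgroup.center G)) (g : G) :
    (infl χ : G → ℂ) g = (χ : G ⧸ Subgroup.center G → ℂ) (g : G ⧸ Subgroup.center G) := rfl

theorem infl_injective : Function.Injective (infl (G := G)) := by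
  intro χ ψ h
  apply Subtype.ext
  funext x
  obtain ⟨g, rfl⟩ := QuotientGroup.mk_surjective x
  have := congrArg (fun θ : IrrCharacter G => (θ : G → ℂ) g) h
  exact this

include hM ht ht2 in
theorem plus_eq_image (hcen : Nat.card (Subgroup.center G) = 2) :
    {χ : IrrCharacter G | χ ∈ principalBlock M G ∧ sgn t χ = 1}
      = infl '' principalBlock M (G ⧸ Subgroup.center G) := by
  haveI : Fact (Nat.Prime 2) := ⟨Nat.prime_two⟩
  have hMp := pmod_isPrime hM
  ext χ
  constructor
  · rintro ⟨hχ, hs⟩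
    have h0 := irr_one_ne_zero χ
    have hχt : (χ : G → ℂ) t = (χ : G → ℂ) 1 := by
      unfold sgn at hs
      field_simp at hs
      exact hs
    have hz : Subgroup.zpowers t = Subgroup.center G := by
      apply Subgroup.eq_of_le_of_card_ge
      · rw [Subgroup.zpowers_le]; exact ht
      · rw [hcen, Nat.card_zpowers, ht2]
    have hker : ∀ n ∈ Subgroup.center G, (χ : G → ℂ) n = (χ : G → ℂ) 1 := by
      intro n hn
      obtain ⟨k, hk⟩ := (mem_powers_iff_mem_zpowers).2 (hz.ge hn)
      have hk' : t ^ k = n := hk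
      rw [← hk']
      exact Cfsg.Agent.Lib.Helper15.irr_central_pow χ.2 ht hχt k
    obtain ⟨ψ, hψ, hψχ⟩ := Cfsg.Agent.Lib.Helper80.exists_deflate_irr (Subgroup.center G) χ.2 hker
    refine ⟨⟨ψ, hψ⟩, ?_, ?_⟩
    · have hN : IsPGroup 2 (Subgroup.center G) := by
        apply IsPGroup.of_card (n := 1)
        rw [hcen]; norm_num
      have := Cfsg.Agent.Lib.Helper82.sameBlock_deflate 2 (Subgroup.center G) hM hN
        (fun g _ hg => absurd (Subgroup.mem_centralizer_iff.2
          (fun h hh => (Subgroup.mem_center_iff.1 hh g).symm)) hg)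
        (trivIrr (G ⧸ Subgroup.center G)) ⟨ψ, hψ⟩
      apply this
      have h1 : ((⟨ψ, hψ⟩ : IrrCharacter (G ⧸ Subgroup.center G)) : G ⧸ Subgroup.center G → ℂ)
          ∘ QuotientGroup.mk = (χ : G → ℂ) := funext hψχ
      rw [h1]
      exact hχ
    · apply Subtype.ext
      funext g
      exact hψχ g
  · rintro ⟨ψ, hψ, rfl⟩
    refine ⟨?_, ?_⟩
    · exact Cfsg.Agent.Lib.Helper82.sameBlock_inflate (Subgroup.center G) hMp hψ
    · unfold sgn
      rw [infl_apply, infl_apply, (QuotientGroup.eq_one_iff t).2 ht, QuotientGroup.mk_one]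
      exact div_self (irr_one_ne_zero ψ)

include e hM in
/-- **Principal block of a group with Sylow `2`-subgroup `Q₈`, trivial odd core and a centre of
order two**: it has exactly seven characters. -/
theorem card_principalBlock (hO : ∀ N : Subgroup G, N.Normal → Odd (Nat.card N) → N = ⊥)
    (hG : (S : Subgroup G) ≠ ⊤) (hcen : Nat.card (Subgroup.center G) = 2) :
    Nat.card (principalBlock M G) = 7 := by
  classical
  haveI : Fact (Nat.Prime 2) := ⟨Nat.prime_two⟩
  haveI := Fintype.ofFinite G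
  have hMp := pmod_isPrime hM
  -- the central involution
  obtain ⟨t', ht'⟩ := exists_prime_orderOf_dvd_card' (G := Subgroup.center G) 2
    (by rw [hcen])
  obtain ⟨t, ht, ht2⟩ : ∃ t : G, t ∈ Subgroup.center G ∧ orderOf t = 2 :=
    ⟨t', t'.2, by rw [Subgroup.orderOf_coe]; exact ht'⟩
  obtain ⟨g₀, hodd, hcG, hq, hnc⟩ := quotient_no_complement S e hO hG hcen
  obtain ⟨P⟩ : Nonempty (Sylow 2 (G ⧸ Subgroup.center G)) := inferInstance
  obtain ⟨hK, hone⟩ := klein_of_no_complement g₀ hodd hq hnc P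
  obtain ⟨ζ₂, ζ₃, ζ₄, ε, hε, h21, h31, h23, h24, h34, hB, hval, -⟩ :=
    Cfsg.Agent.S0948.result M hM P hK hone
  obtain ⟨J, hJ, hJ1, -⟩ := klein_exists_other P (Subgroup.one_mem _)
  have hJo : orderOf J = 2 := orderOf_eq_prime (by rw [pow_two]; exact klein_mul_self P hJ) hJ1
  obtain ⟨hv2, hv3, hv4⟩ := hval J hJo
  have h41 : (ζ₄ : G ⧸ Subgroup.center G → ℂ) ≠ (fun _ => 1) := by
    intro h
    rw [h] at hv4
    norm_num at hv4
  -- the transfer of sums
  have hT : ∀ F : IrrCharacter G → ℂ,
      (∑ χ : IrrCharacter G, if χ ∈ principalBlock M G then (if sgn t χ = 1 then F χ else 0) else 0)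
        = F (infl (trivIrr _)) + F (infl ζ₂) + F (infl ζ₃) + F (infl ζ₄) := by
    intro F
    rw [← Cfsg.Agent.S4479.finsum_block4 M ζ₂ ζ₃ ζ₄ hB ⟨h21, h31, h41, h23, h24, h34⟩
      (fun χ => F (infl χ)), ← finsum_mem_image (infl_injective.injOn),
      ← plus_eq_image M hM t ht ht2 hcen, finsum_mem_irr]
    refine Finset.sum_congr rfl fun χ _ => ?_
    simp only [Set.mem_ofPred_eq]
    split_ifs <;> simp_all
  -- values on elements of even order in the quotient
  have hev : ∀ w : G, Even (orderOf (w : G ⧸ Subgroup.center G)) →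
      ∀ χ ∈ principalBlock M (G ⧸ Subgroup.center G),
        (infl χ : G → ℂ) w = (χ : G ⧸ Subgroup.center G → ℂ) J := by
    intro w hw χ hχ
    rw [infl_apply]
    exact Cfsg.Agent.S4479.value_of_even M hM P hone hJ hJ1 χ hχ hw
  have hmem : ∀ χ : IrrCharacter (G ⧸ Subgroup.center G),
      ((χ : G ⧸ Subgroup.center G → ℂ) = (fun _ => 1) ∨ χ = ζ₂ ∨ χ = ζ₃ ∨ χ = ζ₄) →
        χ ∈ principalBlock M (G ⧸ Subgroup.center G) := by
    intro χ h; rw [hB]; exact h
  have hεε : (ε : ℂ) * conj (ε : ℂ) = 1 := by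
    rcases hε with rfl | rfl <;> simp
  obtain ⟨A, hA⟩ : ∃ A : G → ℂ, A = fun g => ∑ χ : IrrCharacter G,
      if χ ∈ principalBlock M G then sgn t χ * ((χ : G → ℂ) g * conj ((χ : G → ℂ) g)) else 0 :=
    ⟨_, rfl⟩
  have hsg : ∀ χ : IrrCharacter G, sgn t χ = 2 * (if sgn t χ = 1 then 1 else 0) - 1 := by
    intro χ
    rcases sgn_cases t ht ht2 χ with h | h
    · rw [h]; norm_num
    · rw [h]; norm_num
  -- (III)
  have hIII : ∀ w : G, Even (orderOf (w : G ⧸ Subgroup.center G)) → A w = 4 := by
    intro w hw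
    have h1 := sum_normSq_of_even S e M hM t ht ht2 w hw
    have h2 := Cfsg.Agent.S0947.finsum_normSq_eq (principalBlock M G)
      (fun χ => (χ : G → ℂ) w)
    rw [h1, finsum_mem_irr] at h2
    have h3 := hT (fun χ => (χ : G → ℂ) w * conj ((χ : G → ℂ) w))
    rw [hev w hw _ (hmem _ (Or.inl rfl)), hev w hw _ (hmem _ (Or.inr (Or.inl rfl))),
      hev w hw _ (hmem _ (Or.inr (Or.inr (Or.inl rfl)))),
      hev w hw _ (hmem _ (Or.inr (Or.inr (Or.inr rfl)))), hv2, hv3, hv4, hεε] at h3
    have h4 : (trivIrr (G ⧸ Subgroup.center G) : G ⧸ Subgroup.center G → ℂ) J = 1 := rfl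
    rw [h4] at h3
    have h5 : A w = 2 * (∑ χ : IrrCharacter G, if χ ∈ principalBlock M G then
        (if sgn t χ = 1 then (χ : G → ℂ) w * conj ((χ : G → ℂ) w) else 0) else 0)
        - ∑ χ : IrrCharacter G, if χ ∈ principalBlock M G then
          (χ : G → ℂ) w * conj ((χ : G → ℂ) w) else 0 := by
      rw [hA, Finset.mul_sum, ← Finset.sum_sub_distrib]
      refine Finset.sum_congr rfl fun χ _ => ?_
      by_cases hχ : χ ∈ principalBlock M G
      · simp only [if_pos hχ]
        rcases sgn_cases t ht ht2 χ with h | h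
        · rw [h, if_pos rfl]; ring
        · rw [h, if_neg (by norm_num)]; ring
      · simp only [if_neg hχ]; ring
    rw [h5, h3, ← h2]
    norm_num
  -- (II)
  have hII : ∀ y : G, Odd (orderOf y) → A y = 0 := by
    intro y hy
    have hy2 : ¬ 2 ∣ orderOf y := by
      rw [← even_iff_two_dvd, Nat.not_even_iff_odd]; exact hy
    have hp1 : IsPPart 2 y 1 := ⟨y, one_mul y, Commute.one_left y, ⟨0, by simp⟩, hy2⟩
    have hp2 : IsPPart 2 (t * y) t :=
      ⟨y, rfl, (Subgroup.mem_center_iff.1 ht y).symm, ⟨1, by rw [ht2]; norm_num⟩, hy2⟩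
    have hnc' : ¬ IsConj 1 t := by
      rw [isConj_one_right]
      intro h; rw [h, orderOf_one] at ht2; omega
    have h1 := (Cfsg.Agent.S0925.result 2 M hM).2 y (t * y) 1 t hp1 hp2 hnc' _
      (isPBlock_principalBlock (M := M) (G := G))
    rw [finsum_mem_irr] at h1
    rw [hA]
    refine Eq.trans ?_ h1
    refine Finset.sum_congr rfl fun χ _ => ?_
    by_cases hχ : χ ∈ principalBlock M G
    · simp only [if_pos hχ]
      rw [irr_inv, apply_t_mul t ht, map_mul, conj_sgn t ht ht2]
      ring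
    · simp only [if_neg hχ]
  -- invariance
  have hinv : ∀ g, A (t * g) = A g := by
    intro g
    rw [hA]
    refine Finset.sum_congr rfl fun χ _ => ?_
    by_cases hχ : χ ∈ principalBlock M G
    · simp only [if_pos hχ]
      rw [apply_t_mul t ht, map_mul, conj_sgn t ht ht2]
      rcases sgn_cases t ht ht2 χ with h | h <;> rw [h] <;> ring
    · simp only [if_neg hχ]
  have hsplit := sum_split t ht ht2 hcen A hinv
  have hs1 : (∑ g : G, if Odd (orderOf g) then A g else 0) = 0 := by
    apply Finset.sum_eq_zero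
    intro g _
    split_ifs with h
    · exact hII g h
    · rfl
  have hs2 : (∑ g : G, if Even (orderOf (g : G ⧸ Subgroup.center G)) then A g else 0)
      = (Nat.card G : ℂ) := by
    have h1 : (∑ g : G, if Even (orderOf (g : G ⧸ Subgroup.center G)) then A g else 0)
        = ∑ g : G, if Even (orderOf (g : G ⧸ Subgroup.center G)) then (4 : ℂ) else 0 := by
      refine Finset.sum_congr rfl fun g _ => ?_
      split_ifs with h
      · exact hIII g h
      · rfl
    rw [h1, ← Finset.sum_filter, Finset.sum_const, nsmul_eq_mul]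
    have h2 := QuotientGroup.card_preimage_mk (Subgroup.center G)
      {w : G ⧸ Subgroup.center G | Even (orderOf w)}
    have h3 := klein_even_count P hone
    have h4 : Nat.card ↑(QuotientGroup.mk ⁻¹' {w : G ⧸ Subgroup.center G | Even (orderOf w)})
        = (Finset.univ.filter fun g : G => Even (orderOf (g : G ⧸ Subgroup.center G))).card := by
      have h0 : Nat.card ↑(QuotientGroup.mk ⁻¹' {w : G ⧸ Subgroup.center G | Even (orderOf w)})
          = Nat.card {g : G // Even (orderOf (g : G ⧸ Subgroup.center G))} := rfl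
      rw [h0, Nat.card_eq_fintype_card, Fintype.card_subtype]
    have h5 : Nat.card ↑{w : G ⧸ Subgroup.center G | Even (orderOf w)}
        = Nat.card {w : G ⧸ Subgroup.center G // Even (orderOf w)} := rfl
    rw [h4, h5, hcen] at h2
    have h6 : (Finset.univ.filter fun g : G => Even (orderOf (g : G ⧸ Subgroup.center G))).card * 4
        = Nat.card G := by
      rw [h2, hcG]
      rw [hq] at h3
      omega
    exact_mod_cast h6
  have hs3 : ∑ g : G, A g = (∑ χ : IrrCharacter G, if χ ∈ principalBlock M G then sgn t χ else 0)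
      * (Nat.card G : ℂ) := by
    rw [hA, Finset.sum_comm, Finset.sum_mul]
    refine Finset.sum_congr rfl fun χ _ => ?_
    have h1 := classInner_irr_self χ
    unfold classInner at h1
    have hG0 : (Nat.card G : ℂ) ≠ 0 := by exact_mod_cast Nat.card_pos.ne'
    have h2 : ∑ g : G, (χ : G → ℂ) g * conj ((χ : G → ℂ) g) = (Nat.card G : ℂ) := by
      field_simp at h1
      exact h1
    by_cases hχ : χ ∈ principalBlock M G
    · simp only [if_pos hχ]
      rw [← Finset.mul_sum, h2]
    · simp only [if_neg hχ]; simp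
  have hG0 : (Nat.card G : ℂ) ≠ 0 := by exact_mod_cast Nat.card_pos.ne'
  have hsum : (∑ χ : IrrCharacter G, if χ ∈ principalBlock M G then sgn t χ else 0) = 1 := by
    rw [hs3, hs1, hs2, mul_zero, add_zero] at hsplit
    exact mul_right_cancel₀ hG0 (by rw [hsplit, one_mul])
  have hfour := hT (fun _ => 1)
  have hcard : ((Nat.card (principalBlock M G) : ℕ) : ℂ) = 7 := by
    rw [Nat.card_eq_fintype_card, Fintype.card_subtype, Finset.card_filter, Nat.cast_sum]
    have h1 : ∀ χ : IrrCharacter G, (((if χ ∈ principalBlock M G then 1 else 0 : ℕ)) : ℂ)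
        = 2 * (if χ ∈ principalBlock M G then (if sgn t χ = 1 then 1 else 0) else 0)
          - (if χ ∈ principalBlock M G then sgn t χ else 0) := by
      intro χ
      by_cases hχ : χ ∈ principalBlock M G
      · simp only [if_pos hχ]
        have := hsg χ
        push_cast
        linear_combination this
      · simp only [if_neg hχ]; simp
    rw [Finset.sum_congr rfl fun χ _ => h1 χ, Finset.sum_sub_distrib, ← Finset.mul_sum, hfour, hsum]
    norm_num
  exact_mod_cast hcard

end Cfsg.Agent.Lib.Helper52.Q8
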