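import Mathlib.GroupTheory.SpecificGroups.ZGroup
import Cfsg.Agent.S0056
import Cfsg.Agent.Lib.Lead.Cores

/-!
* a `p`-group all of whose abelian subgroups are cyclic has at most one subgroup of order `p`;
* a nontrivial Z-group all of whose subgroups of order `pq` are cyclic has nontrivial centre.
-/

set_option autoImplicit false

namespace Cfsg.Agent.Lib.Helper52

open Subgroup
open scoped commutatorElement

theorem unique_subgroup_of_abelian_cyclic {T : Type*} [Group T] [Finite T] (p : ℕ) [hp : Fact p.Prime]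
    (hT : IsPGroup p T) (hab : ∀ A : Subgroup T, IsMulCommutative A → IsCyclic A) :
    ∀ X Y : Subgroup T, Nat.card X = p → Nat.card Y = p → X = Y := by
  have key : ∀ (z : T), z ∈ center T → orderOf z = p → ∀ X : Subgroup T, Nat.card X = p →
      X = zpowers z := by
    intro z hz hzp X hX
    have hXc : IsCyclic X := isCyclic_of_prime_card hX
    have hXcomm : ∀ x ∈ X, ∀ y ∈ X, x * y = y * x := by
      intro x hx y hy
      have : IsMulCommutative X := inferInstance
      exact congrArg Subtype.val (mul_comm' (⟨x, hx⟩ : X) ⟨y, hy⟩)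
    have hcomm : ∀ x ∈ (X : Set T) ∪ {z}, ∀ y ∈ (X : Set T) ∪ {z}, x * y = y * x := by
      rintro x (hx | rfl) y (hy | rfl)
      · exact hXcomm x hx y hy
      · exact mem_center_iff.1 hz x
      · exact (mem_center_iff.1 hz y).symm
      · rfl
    have hA : IsMulCommutative (closure ((X : Set T) ∪ {z})) := isMulCommutative_closure hcomm
    have hAc : IsCyclic (closure ((X : Set T) ∪ {z})) := hab _ hA
    have hpow : ∀ a ∈ closure ((X : Set T) ∪ {z}), a ^ p = 1 := by
      intro a ha
      induction ha using Subgroup.closure_induction with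
      | mem x hx =>
        rcases hx with hx | rfl
        · have := pow_card_eq_one' (G := X) (x := ⟨x, hx⟩)
          rw [hX] at this
          exact congrArg Subtype.val this
        · rw [← hzp]; exact pow_orderOf_eq_one _
      | one => exact one_pow p
      | mul x y hx hy ihx ihy =>
        have hc : Commute x y :=
          congrArg Subtype.val (mul_comm' (⟨x, hx⟩ : closure ((X : Set T) ∪ {z})) ⟨y, hy⟩)
        rw [hc.mul_pow, ihx, ihy, one_mul]
      | inv x hx ihx => rw [inv_pow, ihx, inv_one]
    have hcard : Nat.card (closure ((X : Set T) ∪ {z})) ∣ p := by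
      rw [← IsCyclic.exponent_eq_card]
      apply Monoid.exponent_dvd_of_forall_pow_eq_one
      rintro ⟨a, ha⟩
      exact Subtype.ext (hpow a ha)
    have hle : Nat.card (closure ((X : Set T) ∪ {z})) ≤ p := Nat.le_of_dvd hp.1.pos hcard
    have hXA : X ≤ closure ((X : Set T) ∪ {z}) := fun x hx => subset_closure (Or.inl hx)
    have hZA : zpowers z ≤ closure ((X : Set T) ∪ {z}) := zpowers_le.2 (subset_closure (Or.inr rfl))
    have e1 : X = closure ((X : Set T) ∪ {z}) := eq_of_le_of_card_ge hXA (by rw [hX]; exact hle)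
    have e2 : zpowers z = closure ((X : Set T) ∪ {z}) :=
      eq_of_le_of_card_ge hZA (by rw [Nat.card_zpowers, hzp]; exact hle)
    exact e1.trans e2.symm
  intro X Y hX hY
  have hnt : Nontrivial T := by
    have h1 : 1 < Nat.card X := hX ▸ hp.1.one_lt
    have : Nontrivial X := Finite.one_lt_card_iff_nontrivial.1 h1
    exact (Subtype.coe_injective (p := fun x => x ∈ X)).nontrivial
  have hcn := hT.center_nontrivial
  obtain ⟨n, hn0, hn⟩ := (hT.to_subgroup (center T)).nontrivial_iff_card.1 hcn
  obtain ⟨z, hz⟩ := exists_prime_orderOf_dvd_card' (G := center T) p (hn ▸ dvd_pow_self p hn0.ne')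
  have hz' : orderOf (z : T) = p := by rwa [Subgroup.orderOf_coe]
  rw [key z z.2 hz' X hX, key z z.2 hz' Y hY]

/-- Subgroups of a cyclic normal subgroup are normalised by the whole group. -/
theorem conj_mem_zpowers_of_isCyclic_normal {T : Type*} [Group T] (C : Subgroup T) [C.Normal] [IsCyclic C]
    {c : T} (hc : c ∈ C) (t : T) : t * c * t⁻¹ ∈ zpowers c := by
  obtain ⟨⟨g, hg⟩, hgen⟩ := IsCyclic.exists_generator (α := C)
  have hgen' : ∀ x ∈ C, ∃ k : ℤ, g ^ k = x := by
    intro x hx
    obtain ⟨k, hk⟩ := hgen ⟨x, hx⟩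
    exact ⟨k, congrArg Subtype.val hk⟩
  obtain ⟨m, rfl⟩ := hgen' c hc
  obtain ⟨k, hk⟩ := hgen' (t * g * t⁻¹) (‹C.Normal›.conj_mem g hg t)
  refine ⟨k, ?_⟩
  change (g ^ m) ^ k = _
  rw [← conj_zpow, ← hk, ← zpow_mul, ← zpow_mul, mul_comm]

theorem center_ne_bot_of_isZGroup {T : Type*} [Group T] [Finite T] [IsZGroup T] [Nontrivial T]
    (hpq : ∀ (A : Subgroup T) (p q : ℕ), p.Prime → q.Prime → Nat.card A = p * q → IsCyclic A) :
    center T ≠ ⊥ := by
  have hC : IsCyclic (commutator T) := IsZGroup.isCyclic_commutator T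
  have hlt := IsZGroup.commutator_lt T
  have hcop := IsZGroup.coprime_commutator_index T
  have hidx : (commutator T).index ≠ 1 := by
    rw [Ne, index_eq_one]
    exact hlt.ne
  have hq : ((commutator T).index.minFac).Prime := Nat.minFac_prime hidx
  have hqd : (commutator T).index.minFac ∣ (commutator T).index := Nat.minFac_dvd _
  generalize (commutator T).index.minFac = q at hq hqd
  have hqC : (Nat.card (commutator T)).Coprime q := hcop.coprime_dvd_right hqd
  have : Fact q.Prime := ⟨hq⟩
  obtain ⟨b, hb⟩ := exists_prime_orderOf_dvd_card' (G := T) q (hqd.trans (index_dvd_card _))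
  have hCc : IsMulCommutative (commutator T) := inferInstance
  have hA : zpowers b ≤ centralizer (commutator T : Set T) := by
    apply Cfsg.Agent.S0056.result (zpowers b) (commutator T)
      (by rw [normalizer_eq_top]; exact le_top) (by rw [Nat.card_zpowers, hb]; exact hqC.symm)
    intro c hc hcp a ha
    have hn : (zpowers c).Normal := by
      constructor
      rintro x ⟨k, rfl⟩ t
      change t * c ^ k * t⁻¹ ∈ _
      rw [← conj_zpow]
      exact zpow_mem (conj_mem_zpowers_of_isCyclic_normal (commutator T) hc t) k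
    have hpC : orderOf c ∣ Nat.card (commutator T) := by
      have := orderOf_dvd_natCard (⟨c, hc⟩ : commutator T)
      rwa [Subgroup.orderOf_mk] at this
    have hpqc : (orderOf c).Coprime q := Nat.Coprime.coprime_dvd_left hpC hqC
    have h1 : Nat.card (zpowers b ⊔ zpowers c : Subgroup T) ∣ q * orderOf c := by
      have := Cfsg.Agent.Lib.Lead.card_sup_dvd (zpowers b) (zpowers c)
      rwa [Nat.card_zpowers, Nat.card_zpowers, hb] at this
    have h2 : orderOf c ∣ Nat.card (zpowers b ⊔ zpowers c : Subgroup T) := by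
      have := card_dvd_of_le (le_sup_right : zpowers c ≤ zpowers b ⊔ zpowers c)
      rwa [Nat.card_zpowers] at this
    have h3 : q ∣ Nat.card (zpowers b ⊔ zpowers c : Subgroup T) := by
      have := card_dvd_of_le (le_sup_left : zpowers b ≤ zpowers b ⊔ zpowers c)
      rwa [Nat.card_zpowers, hb] at this
    have h4 : Nat.card (zpowers b ⊔ zpowers c : Subgroup T) = q * orderOf c :=
      Nat.dvd_antisymm h1 (Nat.Coprime.mul_dvd_of_dvd_of_dvd hpqc.symm h3 h2)
    have h5 : IsCyclic (zpowers b ⊔ zpowers c : Subgroup T) := hpq _ q (orderOf c) hq hcp h4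
    have h6 : IsMulCommutative (zpowers b ⊔ zpowers c : Subgroup T) := inferInstance
    exact congrArg Subtype.val (mul_comm'
      (⟨a, (le_sup_left : zpowers b ≤ zpowers b ⊔ zpowers c) ha⟩ : (zpowers b ⊔ zpowers c : Subgroup T))
      ⟨c, (le_sup_right : zpowers c ≤ zpowers b ⊔ zpowers c) (mem_zpowers c)⟩)
  intro hbot
  have hbc : b ∈ center T := by
    rw [mem_center_iff]
    intro t
    have hc : ⁅t, b⁆ ∈ commutator T := commutator_mem_commutator (mem_top t) (mem_top b)
    have hcb : Commute ⁅t, b⁆ b := mem_centralizer_iff.1 (hA (mem_zpowers b)) _ hc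
    have h1 : (⁅t, b⁆ * b) ^ q = ⁅t, b⁆ ^ q * b ^ q := hcb.mul_pow q
    have h2 : ⁅t, b⁆ * b = t * b * t⁻¹ := by simp [commutatorElement_def]
    have hbq : b ^ q = 1 := by rw [← hb]; exact pow_orderOf_eq_one b
    have h3 : (t * b * t⁻¹) ^ q = 1 := by rw [conj_pow, hbq]; group
    rw [h2, h3, hbq, mul_one] at h1
    have h4 : orderOf ⁅t, b⁆ ∣ q := orderOf_dvd_of_pow_eq_one h1.symm
    have h5 : orderOf ⁅t, b⁆ ∣ Nat.card (commutator T) := by
      have := orderOf_dvd_natCard (⟨_, hc⟩ : commutator T)
      rwa [Subgroup.orderOf_mk] at this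
    have h6 := Nat.eq_one_of_dvd_coprimes hqC h5 h4
    rw [orderOf_eq_one_iff] at h6
    rw [h6, one_mul] at h2
    calc t * b = (t * b * t⁻¹) * t := by group
      _ = b * t := by rw [← h2]
  rw [hbot, mem_bot] at hbc
  rw [hbc, orderOf_one] at hb
  exact hq.one_lt.ne hb

end Cfsg.Agent.Lib.Helper52
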